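import Mathlib

/-!
Lie rings graded by `ZMod p` with trivial zero component: the theorems of Kreknin and Higman.
-/

set_option autoImplicit false

namespace CfsgLib.Kreknin

variable {T : Type*} [LieRing T] {p : ℕ}

/-- A family of additive subgroups compatible with the bracket. -/
structure Graded (S : ZMod p → AddSubgroup T) : Prop where
  lie_mem : ∀ {a b : ZMod p} {x y : T}, x ∈ S a → y ∈ S b → ⁅x, y⁆ ∈ S (a + b)
  zero : S 0 = ⊥

/-- Brackets of two families. -/
def brk (S S' : ZMod p → AddSubgroup T) (i : ZMod p) : AddSubgroup T :=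
  AddSubgroup.closure {z | ∃ a b, a + b = i ∧ ∃ x ∈ S a, ∃ y ∈ S' b, z = ⁅x, y⁆}

/-- The derived series of a family. -/
def der (S : ZMod p → AddSubgroup T) : ℕ → ZMod p → AddSubgroup T
  | 0 => S
  | n + 1 => brk (der S n) (der S n)

/-- The lower central series of a family; index `n` is weight `n + 1`. -/
def cen (S : ZMod p → AddSubgroup T) : ℕ → ZMod p → AddSubgroup T
  | 0 => S
  | n + 1 => brk (cen S n) S

theorem lie_mem_brk {S S' : ZMod p → AddSubgroup T} {a b : ZMod p} {x y : T} (hx : x ∈ S a) (hy : y ∈ S' b) :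
    ⁅x, y⁆ ∈ brk S S' (a + b) :=
  AddSubgroup.subset_closure ⟨a, b, rfl, x, hx, y, hy, rfl⟩

theorem brk_le {S S' : ZMod p → AddSubgroup T} {i : ZMod p} {X : AddSubgroup T}
    (h : ∀ a b, a + b = i → ∀ x ∈ S a, ∀ y ∈ S' b, ⁅x, y⁆ ∈ X) : brk S S' i ≤ X := by
  refine (AddSubgroup.closure_le _).mpr ?_
  rintro _ ⟨a, b, hab, x, hx, y, hy, rfl⟩
  exact h a b hab x hx y hy

theorem brk_mono {S S' R R' : ZMod p → AddSubgroup T} (h : ∀ i, S i ≤ R i) (h' : ∀ i, S' i ≤ R' i) (i : ZMod p) :
    brk S S' i ≤ brk R R' i :=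
  brk_le fun a b hab x hx y hy => hab ▸ lie_mem_brk (h a hx) (h' b hy)

theorem brk_le_of_graded {S R R' : ZMod p → AddSubgroup T} (hS : Graded S) (h : ∀ i, R i ≤ S i)
    (h' : ∀ i, R' i ≤ S i) (i : ZMod p) : brk R R' i ≤ S i :=
  brk_le fun a b hab _ hx _ hy => hab ▸ hS.lie_mem (h a hx) (h' b hy)

theorem graded_brk_self {S : ZMod p → AddSubgroup T} (hS : Graded S) : Graded (brk S S) where
  lie_mem {a b _ _} hx hy :=
    lie_mem_brk (brk_le_of_graded hS (fun _ => le_rfl) (fun _ => le_rfl) a hx)
      (brk_le_of_graded hS (fun _ => le_rfl) (fun _ => le_rfl) b hy)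
  zero := le_bot_iff.mp ((brk_le_of_graded hS (fun _ => le_rfl) (fun _ => le_rfl) 0).trans hS.zero.le)

theorem graded_der {S : ZMod p → AddSubgroup T} (hS : Graded S) : ∀ n, Graded (der S n)
  | 0 => hS
  | n + 1 => graded_brk_self (graded_der hS n)

theorem der_le {S : ZMod p → AddSubgroup T} (hS : Graded S) : ∀ n i, der S n i ≤ S i
  | 0, _ => le_rfl
  | n + 1, i => brk_le_of_graded hS (der_le hS n) (der_le hS n) i

theorem cen_le {S : ZMod p → AddSubgroup T} (hS : Graded S) : ∀ n i, cen S n i ≤ S i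
  | 0, _ => le_rfl
  | n + 1, i => brk_le_of_graded hS (cen_le hS n) (fun _ => le_rfl) i

theorem der_add (S : ZMod p → AddSubgroup T) (m n : ℕ) : der (der S m) n = der S (m + n) := by
  induction n with
  | zero => rfl
  | succ n ih =>
    show brk (der (der S m) n) (der (der S m) n) = brk (der S (m + n)) (der S (m + n))
    rw [ih]

theorem der_mono {S R : ZMod p → AddSubgroup T} (h : ∀ i, S i ≤ R i) : ∀ n i, der S n i ≤ der R n i
  | 0, i => h i
  | n + 1, i => brk_mono (der_mono h n) (der_mono h n) i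

/-! ### Kreknin -/

variable [Fact p.Prime]

/-- Left-normed products of elements of degree above `k`. -/
inductive Mono (S : ZMod p → AddSubgroup T) (k : ℕ) : ZMod p → T → Prop
  | base {a : ZMod p} {x : T} (ha : k < a.val) (hx : x ∈ S a) : Mono S k a x
  | step {a b : ZMod p} {y x : T} (hy : Mono S k a y) (hb : k < b.val) (hx : x ∈ S b) :
      Mono S k (a + b) ⁅y, x⁆

/-- The subring generated by the components of degree above `k`. -/
def high (S : ZMod p → AddSubgroup T) (k : ℕ) (i : ZMod p) : AddSubgroup T :=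
  AddSubgroup.closure {z | Mono S k i z}

variable {S : ZMod p → AddSubgroup T}

theorem mono_mem (hS : Graded S) {k : ℕ} {i : ZMod p} {z : T} (h : Mono S k i z) : z ∈ S i := by
  induction h with
  | base _ hx => exact hx
  | step _ _ hx ih => exact hS.lie_mem ih hx

theorem mem_high {k : ℕ} {a : ZMod p} {x : T} (ha : k < a.val) (hx : x ∈ S a) : x ∈ high S k a :=
  AddSubgroup.subset_closure (.base ha hx)

theorem lie_mem_high_gen {k : ℕ} {a b : ZMod p} {u x : T} (hu : u ∈ high S k a) (hb : k < b.val) (hx : x ∈ S b) :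
    ⁅u, x⁆ ∈ high S k (a + b) := by
  induction hu using AddSubgroup.closure_induction with
  | mem z hz => exact AddSubgroup.subset_closure (Mono.step (show Mono S k a z from hz) hb hx)
  | zero => rw [zero_lie]; exact zero_mem _
  | add y z _ _ hy hz => rw [add_lie]; exact add_mem hy hz
  | neg y _ hy => rw [neg_lie]; exact neg_mem hy

theorem lie_mem_high {k : ℕ} {a b : ZMod p} {u v : T} (hu : u ∈ high S k a) (hv : v ∈ high S k b) :
    ⁅u, v⁆ ∈ high S k (a + b) := by
  induction hv using AddSubgroup.closure_induction with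
  | zero => rw [lie_zero]; exact zero_mem _
  | add y z _ _ hy hz => rw [lie_add]; exact add_mem hy hz
  | neg y _ hy => rw [lie_neg]; exact neg_mem hy
  | mem v hv =>
    induction hv generalizing u a with
    | base hb hx => exact lie_mem_high_gen hu hb hx
    | @step c d y x hy hd hx ih =>
      have h1 : ⁅u, ⁅y, x⁆⁆ = ⁅⁅u, y⁆, x⁆ - ⁅⁅u, x⁆, y⁆ := by
        rw [leibniz_lie u y x, ← lie_skew ⁅u, x⁆ y]
        abel
      rw [h1]
      refine sub_mem ?_ ?_
      · rw [← add_assoc]
        exact lie_mem_high_gen (ih hu) hd hx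
      · rw [show a + (c + d) = a + d + c by ring]
        exact ih (lie_mem_high_gen hu hd hx)

/-- The key step. -/
theorem key_step (hS : Graded S) {k : ℕ} (hk : k + 1 < p) {a b : ZMod p} {u v : T}
    (hab : a + b = ((k + 1 : ℕ) : ZMod p)) (hu : u ∈ high S k a) (hv : v ∈ S b) :
    ⁅u, v⁆ ∈ high S (k + 1) (a + b) := by
  have hval : ((k + 1 : ℕ) : ZMod p).val = k + 1 := ZMod.val_cast_of_lt hk
  induction hu using AddSubgroup.closure_induction with
  | zero => rw [zero_lie]; exact zero_mem _
  | add y z _ _ hy hz => rw [add_lie]; exact add_mem hy hz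
  | neg y _ hy => rw [neg_lie]; exact neg_mem hy
  | mem u hu =>
    -- a degree above `k` is either above `k + 1` or it is complemented by zero
    have hsplit : ∀ {c e : ZMod p}, k < c.val → c + e = ((k + 1 : ℕ) : ZMod p) →
        e = 0 ∨ (k + 1 < c.val ∧ k + 1 < e.val) := by
      intro c e hc hce
      rcases Nat.lt_or_eq_of_le (Nat.succ_le_of_lt hc) with h | h
      · refine Or.inr ⟨h, ?_⟩
        have hsum := congrArg ZMod.val hce
        rw [hval, ZMod.val_add] at hsum
        have hc' := ZMod.val_lt c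
        by_contra hle
        push Not at hle
        rcases Nat.lt_or_ge (c.val + e.val) p with hlt | hge
        · rw [Nat.mod_eq_of_lt hlt] at hsum
          omega
        · rw [Nat.mod_eq_sub_mod hge, Nat.mod_eq_of_lt (by omega)] at hsum
          omega
      · left
        have hc' : c = ((k + 1 : ℕ) : ZMod p) := by
          rw [← ZMod.natCast_zmod_val c, ← h]
        rw [hc'] at hce
        exact add_eq_left.mp hce
    induction hu generalizing v b with
    | @base c x hc hx =>
      rcases hsplit hc hab with rfl | ⟨h1, h2⟩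
      · rw [hS.zero, AddSubgroup.mem_bot] at hv
        rw [hv, lie_zero]
        exact zero_mem _
      · exact lie_mem_high_gen (mem_high h1 hx) h2 hv
    | @step c d y x hy hd hx ih =>
      have h1 : ⁅⁅y, x⁆, v⁆ = ⁅y, ⁅x, v⁆⁆ + ⁅⁅y, v⁆, x⁆ := by
        rw [leibniz_lie y x v, ← lie_skew ⁅y, v⁆ x]
        abel
      rw [h1]
      refine add_mem ?_ ?_
      · rw [add_assoc]
        exact ih (by rw [← hab, add_assoc]) (hS.lie_mem hx hv)
      · have hyv := hS.lie_mem (mono_mem hS hy) hv
        rcases hsplit hd (e := c + b) (by rw [← hab]; ring) with h0 | ⟨h1, h2⟩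
        · rw [h0, hS.zero, AddSubgroup.mem_bot] at hyv
          rw [hyv, zero_lie]
          exact zero_mem _
        · rw [show c + d + b = c + b + d by ring]
          exact lie_mem_high_gen (mem_high h2 hyv) h1 hx

theorem der_le_high : ∀ k : ℕ, k < p → ∀ (S : ZMod p → AddSubgroup T), Graded S → ∀ i : ZMod p,
    der S (2 ^ k - 1) i ≤ high S k i := by
  intro k
  induction k with
  | zero =>
    intro _ S hS i x hx
    rcases Nat.eq_zero_or_pos i.val with h | h
    · rw [ZMod.val_eq_zero] at h
      subst h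
      change x ∈ S 0 at hx
      rw [hS.zero, AddSubgroup.mem_bot] at hx
      rw [hx]
      exact zero_mem _
    · exact mem_high h hx
  | succ k ih =>
    intro hk S hS i
    set m := 2 ^ k - 1 with hm
    have h2 : 2 ^ (k + 1) - 1 = (m + 1) + m := by
      have := Nat.one_le_two_pow (n := k)
      rw [pow_succ]
      omega
    rw [h2, ← der_add]
    have hR := graded_der hS (m + 1)
    have hgen : ∀ a : ZMod p, k < a.val → der S (m + 1) a ≤ high S (k + 1) a := by
      intro a ha
      rcases Nat.lt_or_eq_of_le (Nat.succ_le_of_lt ha) with h | h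
      · exact fun x hx => mem_high h (der_le hS _ a hx)
      · refine brk_le fun c e hce x hx y hy => ?_
        have := key_step hS hk (a := c) (b := e) (by rw [hce, ← ZMod.natCast_zmod_val a, ← h])
          (ih (by omega) S hS c hx) (der_le hS m e hy)
        rwa [hce] at this
    refine (ih (by omega) _ hR i).trans ((AddSubgroup.closure_le _).mpr ?_)
    intro z hz
    induction hz with
    | base ha hx => exact hgen _ ha hx
    | step _ hb hx ih' => exact lie_mem_high ih' (hgen _ hb hx)

/-- Kreknin's theorem. -/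
theorem der_eq_bot (hS : Graded S) (i : ZMod p) : der S (2 ^ (p - 1) - 1) i = ⊥ := by
  have hp : p.Prime := Fact.out
  refine le_bot_iff.mp ((der_le_high (p - 1) (by have := hp.pos; omega) S hS i).trans ((AddSubgroup.closure_le _).mpr ?_))
  intro z hz
  cases hz with
  | base ha hx => have := ZMod.val_lt (n := p) i; omega
  | @step a b y x hy hb hx => have := ZMod.val_lt (n := p) b; omega

/-! ### Higman -/

/-- Sublist sums meeting `-i`. -/
def Hits : ZMod p → List (ZMod p) → Prop
  | i, [] => i = 0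
  | i, d :: l => Hits (i + d) l ∨ Hits i l

theorem card_sums_succ {A : Finset (ZMod p)} {d : ZMod p} (hd : d ≠ 0) (hA : A.Nonempty) :
    min p (A.card + 1) ≤ (A ∪ A.image (· + d)).card := by
  classical
  rcases Finset.eq_empty_or_nonempty ((A.image (· + d)) \ A) with h | ⟨x, hx⟩
  · rw [Finset.sdiff_eq_empty_iff_subset] at h
    have hmem : ∀ n : ℕ, ∀ a ∈ A, a + n * d ∈ A := by
      intro n
      induction n with
      | zero => simp
      | succ n ih =>
        intro a ha
        have := h (Finset.mem_image_of_mem _ (ih a ha))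
        convert this using 1
        push_cast
        ring
    obtain ⟨a, ha⟩ := hA
    refine (min_le_left _ _).trans (le_trans ?_ (Finset.card_le_card Finset.subset_union_left))
    refine le_trans (le_of_eq ((ZMod.card p).symm.trans Finset.card_univ.symm)) ?_
    refine Finset.card_le_card fun z _ => ?_
    have := hmem ((z - a) * d⁻¹).val a ha
    rwa [ZMod.natCast_zmod_val, mul_assoc, inv_mul_cancel₀ hd, mul_one, add_sub_cancel] at this
  · refine (min_le_right _ _).trans (Finset.card_lt_card ?_)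
    rw [Finset.ssubset_iff_of_subset Finset.subset_union_left]
    rw [Finset.mem_sdiff] at hx
    exact ⟨x, Finset.mem_union_right _ hx.1, hx.2⟩

theorem exists_sums : ∀ l : List (ZMod p), (∀ d ∈ l, d ≠ 0) →
    ∃ A : Finset (ZMod p), min p (l.length + 1) ≤ A.card ∧ ∀ i, -i ∈ A → Hits i l := by
  classical
  intro l
  induction l with
  | nil =>
    intro _
    refine ⟨{0}, by simp, fun i hi => ?_⟩
    simpa [Hits] using hi
  | cons d l ih =>
    intro hl
    obtain ⟨A, hA, hhit⟩ := ih fun e he => hl e (List.mem_cons_of_mem _ he)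
    have hAne : A.Nonempty := Finset.card_pos.mp (lt_of_lt_of_le (by
      have := (Fact.out : p.Prime).pos
      omega) hA)
    refine ⟨A ∪ A.image (· + d), ?_, fun i hi => ?_⟩
    · have := card_sums_succ (hl d List.mem_cons_self) hAne
      simp only [List.length_cons]
      omega
    · rcases Finset.mem_union.mp hi with h | h
      · exact Or.inr (hhit i h)
      · obtain ⟨a, ha, hai⟩ := Finset.mem_image.mp h
        refine Or.inl (hhit (i + d) ?_)
        rwa [show -(i + d) = a by rw [neg_add, ← hai]; ring]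

theorem hits_of_length (i : ZMod p) {l : List (ZMod p)} (hl : ∀ d ∈ l, d ≠ 0) (hlen : p ≤ l.length + 1) :
    Hits i l := by
  classical
  obtain ⟨A, hA, hhit⟩ := exists_sums l hl
  refine hhit i ?_
  rw [min_eq_left hlen] at hA
  rw [Finset.eq_univ_of_card A (le_antisymm (Finset.card_le_univ A) ((le_of_eq (ZMod.card p)).trans hA))]
  exact Finset.mem_univ _

/-- Iterated bracket with a list of homogeneous elements. -/
def iter (w : T) : List (ZMod p × T) → T
  | [] => w
  | x :: l => iter ⁅w, x.2⁆ l

theorem cen_ideal (hS : Graded S) : ∀ (t : ℕ) (a b : ZMod p) (u x : T), u ∈ cen (brk S S) t a → x ∈ S b →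
    ⁅u, x⁆ ∈ cen (brk S S) t (a + b) := by
  intro t
  induction t with
  | zero =>
    intro a b u x hu hx
    exact lie_mem_brk (brk_le_of_graded hS (fun _ => le_rfl) (fun _ => le_rfl) a hu) hx
  | succ t ih =>
    intro a b u x hu hx
    induction hu using AddSubgroup.closure_induction with
    | zero => rw [zero_lie]; exact zero_mem _
    | add y z _ _ hy hz => rw [add_lie]; exact add_mem hy hz
    | neg y _ hy => rw [neg_lie]; exact neg_mem hy
    | mem z hz =>
      obtain ⟨c, d, rfl, v, hv, y, hy, rfl⟩ := hz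
      have h1 : ⁅⁅v, y⁆, x⁆ = ⁅v, ⁅y, x⁆⁆ + ⁅⁅v, x⁆, y⁆ := by
        rw [leibniz_lie v y x, ← lie_skew ⁅v, x⁆ y]
        abel
      rw [h1]
      refine add_mem ?_ ?_
      · rw [add_assoc]
        exact lie_mem_brk hv (lie_mem_brk (brk_le_of_graded hS (fun _ => le_rfl) (fun _ => le_rfl) d hy) hx)
      · rw [show c + d + b = c + b + d by ring]
        exact lie_mem_brk (ih c b v x hv hx) hy

theorem cen_succ_le (hS : Graded S) (t : ℕ) : ∀ i, cen (brk S S) (t + 1) i ≤ cen (brk S S) t i := fun _ =>
  brk_le fun a b hab _ hx _ hy =>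
    hab ▸ cen_ideal hS t a b _ _ hx (brk_le_of_graded hS (fun _ => le_rfl) (fun _ => le_rfl) b hy)

theorem iter_mem (hS : Graded S) (t : ℕ) : ∀ (l : List (ZMod p × T)), (∀ x ∈ l, x.2 ∈ S x.1) →
    ∀ (i : ZMod p) (w : T), w ∈ cen (brk S S) t i → iter w l ∈ cen (brk S S) t (i + (l.map (·.1)).sum) := by
  intro l
  induction l with
  | nil => intro _ i w hw; simpa [iter] using hw
  | cons x l ih =>
    intro hl i w hw
    rw [List.map_cons, List.sum_cons, ← add_assoc]
    exact ih (fun y hy => hl y (List.mem_cons_of_mem _ hy)) _ _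
      (cen_ideal hS t i x.1 w x.2 hw (hl x List.mem_cons_self))

theorem iter_sub (l : List (ZMod p × T)) : ∀ u v : T, iter (u - v) l = iter u l - iter v l := by
  induction l with
  | nil => intro u v; rfl
  | cons y l ih =>
    intro u v
    show iter ⁅u - v, y.2⁆ l = iter ⁅u, y.2⁆ l - iter ⁅v, y.2⁆ l
    rw [sub_lie, ih]

theorem iter_swap (hS : Graded S) (t : ℕ) {b : ZMod p} {x : T} (hx : x ∈ S b) : ∀ (l : List (ZMod p × T)),
    (∀ y ∈ l, y.2 ∈ S y.1) → ∀ (i : ZMod p) (w : T), w ∈ cen (brk S S) t i →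
      iter ⁅w, x⁆ l - ⁅iter w l, x⁆ ∈ cen (brk S S) (t + 1) (i + b + (l.map (·.1)).sum) := by
  intro l
  induction l with
  | nil => intro _ i w _; simp [iter]
  | cons y l ih =>
    intro hl i w hw
    have hy := hl y List.mem_cons_self
    have hl' : ∀ z ∈ l, z.2 ∈ S z.1 := fun z hz => hl z (List.mem_cons_of_mem _ hz)
    show iter ⁅⁅w, x⁆, y.2⁆ l - ⁅iter ⁅w, y.2⁆ l, x⁆ ∈ _
    have h1 : ⁅⁅w, x⁆, y.2⁆ - ⁅⁅w, y.2⁆, x⁆ = ⁅w, ⁅x, y.2⁆⁆ := by
      rw [leibniz_lie w x y.2, ← lie_skew ⁅w, y.2⁆ x]
      abel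
    have h2 := iter_mem hS (t + 1) l hl' (i + (b + y.1)) _ (lie_mem_brk hw (lie_mem_brk hx hy))
    rw [← h1, iter_sub] at h2
    have h3 := ih hl' (i + y.1) ⁅w, y.2⁆ (cen_ideal hS t i y.1 w y.2 hw hy)
    rw [List.map_cons, List.sum_cons]
    rw [show i + (b + y.1) + (l.map (·.1)).sum = i + b + (y.1 + (l.map (·.1)).sum) by ring] at h2
    rw [show i + y.1 + b + (l.map (·.1)).sum = i + b + (y.1 + (l.map (·.1)).sum) by ring] at h3
    have := add_mem h2 h3
    rwa [sub_add_sub_cancel] at this

theorem iter_mem_succ (hS : Graded S) (t : ℕ) : ∀ (l : List (ZMod p × T)), (∀ x ∈ l, x.2 ∈ S x.1) →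
    ∀ (i : ZMod p) (w : T), w ∈ cen (brk S S) t i → Hits i (l.map (·.1)) →
      iter w l ∈ cen (brk S S) (t + 1) (i + (l.map (·.1)).sum) := by
  intro l
  induction l with
  | nil =>
    intro _ i w hw hh
    have h0 : i = 0 := hh
    subst h0
    have : w ∈ S 0 := brk_le_of_graded hS (fun _ => le_rfl) (fun _ => le_rfl) 0 (cen_le (graded_brk_self hS) t 0 hw)
    rw [hS.zero, AddSubgroup.mem_bot] at this
    subst this
    exact zero_mem _
  | cons x l ih =>
    intro hl i w hw hh
    have hx := hl x List.mem_cons_self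
    have hl' : ∀ z ∈ l, z.2 ∈ S z.1 := fun z hz => hl z (List.mem_cons_of_mem _ hz)
    rw [List.map_cons, List.sum_cons, ← add_assoc]
    rcases hh with h | h
    · exact ih hl' _ _ (cen_ideal hS t i x.1 w x.2 hw hx) h
    · have h1 := iter_swap hS t hx l hl' i w hw
      have h2 := cen_ideal hS (t + 1) _ x.1 _ x.2 (ih hl' i w hw h) hx
      rw [show i + (l.map (·.1)).sum + x.1 = i + x.1 + (l.map (·.1)).sum by ring] at h2
      have := add_mem h1 h2
      rwa [sub_add_cancel] at this

theorem cen_le_of_iter (X : ZMod p → AddSubgroup T) : ∀ (s t : ℕ),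
    (∀ (a : ZMod p) (w : T), w ∈ cen S t a → ∀ l : List (ZMod p × T), l.length = s → (∀ x ∈ l, x.2 ∈ S x.1) →
      iter w l ∈ X (a + (l.map (·.1)).sum)) → ∀ i, cen S (t + s) i ≤ X i := by
  intro s
  induction s with
  | zero =>
    intro t h i w hw
    simpa [iter] using h i w hw [] rfl (by simp)
  | succ s ih =>
    intro t h i
    rw [show t + (s + 1) = t + 1 + s by omega]
    refine ih (t + 1) (fun a w hw l hlen hl => ?_) i
    induction hw using AddSubgroup.closure_induction with
    | zero =>
      have : iter (0 : T) l = 0 := by simpa using iter_sub l 0 0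
      rw [this]
      exact zero_mem _
    | add y z _ _ hy hz =>
      have hneg : ∀ u : T, iter (-u) l = - iter u l := fun u => by
        have h0 : iter (0 : T) l = 0 := by simpa using iter_sub l 0 0
        simpa [h0] using iter_sub l 0 u
      have : iter (y + z) l = iter y l + iter z l := by
        rw [← sub_neg_eq_add, iter_sub, hneg, sub_neg_eq_add]
      rw [this]
      exact add_mem hy hz
    | neg y _ hy =>
      have h0 : iter (0 : T) l = 0 := by simpa using iter_sub l 0 0
      have : iter (-y) l = - iter y l := by simpa [h0] using iter_sub l 0 y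
      rw [this]
      exact neg_mem hy
    | mem z hz =>
      obtain ⟨c, d, hcd, v, hv, y, hy, rfl⟩ := hz
      have := h c v hv ((d, y) :: l) (by simp [hlen]) (by
        intro x hx
        rcases List.mem_cons.mp hx with rfl | hx
        · exact hy
        · exact hl x hx)
      rwa [List.map_cons, List.sum_cons, ← add_assoc, hcd] at this

theorem cen_le_cen_brk (hS : Graded S) : ∀ j i, cen S ((p - 1) * j + 1) i ≤ cen (brk S S) j i := by
  intro j
  induction j with
  | zero => intro i; exact le_rfl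
  | succ j ih =>
    intro i
    rw [show (p - 1) * (j + 1) + 1 = ((p - 1) * j + 1) + (p - 1) by ring]
    refine cen_le_of_iter _ (p - 1) _ (fun a w hw l hlen hl => ?_) i
    by_cases h0 : ∀ d ∈ l.map (·.1), d ≠ (0 : ZMod p)
    · exact iter_mem_succ hS j l hl a w (ih a hw) (hits_of_length a h0 (by simp [hlen]; omega))
    · push Not at h0
      obtain ⟨d, hd, rfl⟩ := h0
      obtain ⟨y, hy, hy0⟩ := List.mem_map.mp hd
      have hyz := hl y hy
      rw [hy0, hS.zero, AddSubgroup.mem_bot] at hyz
      suffices iter w l = 0 by rw [this]; exact zero_mem _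
      clear hlen hl ih hw hd
      induction l generalizing w with
      | nil => simp at hy
      | cons x l ihl =>
        show iter ⁅w, x.2⁆ l = 0
        rcases List.mem_cons.mp hy with rfl | h
        · rw [hyz, lie_zero]
          simpa using iter_sub l (0 : T) 0
        · exact ihl _ h

/-- Higman's bound from the derived length. -/
theorem cen_eq_bot : ∀ (n : ℕ) (S : ZMod p → AddSubgroup T), Graded S → (∀ i, der S n i = ⊥) →
    ∀ i, cen S (∑ r ∈ Finset.range n, (p - 1) ^ r) i = ⊥ := by
  intro n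
  induction n with
  | zero => intro S _ h i; exact h i
  | succ n ih =>
    intro S hS h i
    rw [Finset.sum_range_succ', pow_zero]
    simp only [pow_succ', ← Finset.mul_sum]
    refine le_bot_iff.mp ((cen_le_cen_brk hS _ i).trans (ih _ (graded_brk_self hS) (fun a => ?_) i).le)
    have := h a
    rwa [Nat.add_comm n 1, ← der_add] at this

/-- Nilpotency of Kreknin–Higman. -/
theorem cen_bound (hS : Graded S) (i : ZMod p) :
    cen S (∑ r ∈ Finset.range (2 ^ (p - 1) - 1), (p - 1) ^ r) i = ⊥ :=
  cen_eq_bot _ S hS (der_eq_bot hS) i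

omit [Fact p.Prime] in
theorem zmod_three : ∀ c d b : ZMod 3, c + d ≠ 0 → c + d + b ≠ 0 → c ≠ 0 → d ≠ 0 → b ≠ 0 →
    c + b = 0 ∧ d + b = 0 := by decide

/-- The case of three. -/
theorem cen_two_of_three (hp : p = 3) (hS : Graded S) (i : ZMod p) : cen S 2 i = ⊥ := by
  subst hp
  have hzero : ∀ {a b : ZMod 3} {x y : T}, x ∈ S a → y ∈ S b → a + b = 0 → ⁅x, y⁆ = 0 := by
    intro a b x y hx hy hab
    have := hS.lie_mem hx hy
    rwa [hab, hS.zero, AddSubgroup.mem_bot] at this
  refine le_bot_iff.mp (brk_le fun a b hab u hu z hz => ?_)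
  rw [AddSubgroup.mem_bot]
  induction hu using AddSubgroup.closure_induction with
  | zero => rw [zero_lie]
  | add y w _ _ hy hw => rw [add_lie, hy, hw, add_zero]
  | neg y _ hy => rw [neg_lie, hy, neg_zero]
  | mem w hw =>
    obtain ⟨c, d, rfl, x, hx, y, hy, rfl⟩ := hw
    by_cases hcd : c + d = 0
    · rw [hzero hx hy hcd, zero_lie]
    by_cases hsum : c + d + b = 0
    · exact hzero (hS.lie_mem hx hy) hz hsum
    by_cases hc : c = 0
    · subst hc
      change x ∈ S 0 at hx
      rw [hS.zero, AddSubgroup.mem_bot] at hx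
      rw [hx, zero_lie, zero_lie]
    by_cases hd : d = 0
    · subst hd
      rw [hS.zero, AddSubgroup.mem_bot] at hy
      rw [hy, lie_zero, zero_lie]
    by_cases hb : b = 0
    · subst hb
      rw [hS.zero, AddSubgroup.mem_bot] at hz
      rw [hz, lie_zero]
    have hcases : c + b = 0 ∧ d + b = 0 := zmod_three c d b hcd hsum hc hd hb
    rw [show ⁅⁅x, y⁆, z⁆ = ⁅x, ⁅y, z⁆⁆ + ⁅⁅x, z⁆, y⁆ by rw [leibniz_lie x y z, ← lie_skew ⁅x, z⁆ y]; abel,
      hzero hy hz hcases.2, hzero hx hz hcases.1, lie_zero, zero_lie, add_zero]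

end CfsgLib.Kreknin
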