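import Mathlib
import Cfsg.Agent.Kreknin.Lie

/-!
The Lie ring of the lower central series, with an extra grading by `ZMod p`.
-/

set_option autoImplicit false

namespace CfsgLib.Kreknin

open scoped commutatorElement DirectSum

variable (G : Type*) [Group G]

/-- Lower central series. -/
abbrev lcs (i : ℕ) : Subgroup G := (⊤ : Subgroup G).lowerCentralSeries i

variable {G}

theorem commutator_lcs_le (i j : ℕ) : ⁅lcs G i, lcs G j⁆ ≤ lcs G (i + j + 1) := by
  induction j generalizing i with
  | zero => exact le_rfl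
  | succ j ih =>
    rw [Subgroup.commutator_comm]
    show ⁅⁅lcs G j, (⊤ : Subgroup G)⁆, lcs G i⁆ ≤ _
    set L := lcs G (i + (j + 1) + 1)
    rw [← QuotientGroup.ker_mk' L, ← Subgroup.map_eq_bot_iff, Subgroup.map_commutator, Subgroup.map_commutator]
    refine Subgroup.commutator_commutator_eq_bot_of_rotate ?_ ?_
    · rw [← Subgroup.map_commutator, ← Subgroup.map_commutator, Subgroup.map_eq_bot_iff, QuotientGroup.ker_mk',
        Subgroup.commutator_comm (⊤ : Subgroup G)]
      refine (ih (i + 1)).trans_eq ?_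
      congr 1
      omega
    · rw [← Subgroup.map_commutator, ← Subgroup.map_commutator, Subgroup.map_eq_bot_iff, QuotientGroup.ker_mk']
      refine (Subgroup.commutator_mono (ih i) le_rfl).trans_eq ?_
      congr 1

theorem comm_mem {i j n : ℕ} (h : i + j + 1 = n) {x y : G} (hx : x ∈ lcs G i) (hy : y ∈ lcs G j) :
    ⁅x, y⁆ ∈ lcs G n :=
  h ▸ commutator_lcs_le i j (Subgroup.commutator_mem_commutator hx hy)

theorem comm_top_mem {n : ℕ} {x : G} (hx : x ∈ lcs G n) (a : G) : ⁅x, a⁆ ∈ lcs G (n + 1) :=
  comm_mem (i := n) (j := 0) rfl hx (Subgroup.mem_top a)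

theorem lcs_le_of_le {i n : ℕ} (h : i ≤ n) : lcs G n ≤ lcs G i := (⊤ : Subgroup G).lowerCentralSeries_antitone h

variable (G)

/-- A factor of the series, multiplicatively. -/
abbrev Fac (i : ℕ) : Type _ := ↥(lcs G i) ⧸ (lcs G (i + 1)).subgroupOf (lcs G i)

noncomputable instance facCommGroup (i : ℕ) : CommGroup (Fac G i) :=
  { (inferInstance : Group (Fac G i)) with
    mul_comm := fun a b => by
      obtain ⟨a, rfl⟩ := QuotientGroup.mk_surjective a
      obtain ⟨b, rfl⟩ := QuotientGroup.mk_surjective b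
      rw [← QuotientGroup.mk_mul, ← QuotientGroup.mk_mul, QuotientGroup.eq, Subgroup.mem_subgroupOf]
      have h := comm_top_mem (Subgroup.inv_mem _ b.2) ((a : G)⁻¹)
      convert h using 1
      simp [commutatorElement_def, mul_assoc] }

/-- A factor of the series, additively. -/
abbrev gr (i : ℕ) : Type _ := Additive (Fac G i)

variable {G}

/-- The class of an element. -/
def cls {i : ℕ} (x : G) (hx : x ∈ lcs G i) : gr G i :=
  Additive.ofMul (QuotientGroup.mk ⟨x, hx⟩)

theorem cls_eq {i : ℕ} {x y : G} (hx : x ∈ lcs G i) (hy : y ∈ lcs G i) (h : x⁻¹ * y ∈ lcs G (i + 1)) :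
    cls x hx = cls y hy :=
  congrArg Additive.ofMul (QuotientGroup.eq.mpr (Subgroup.mem_subgroupOf.mpr h))

theorem mem_of_cls_eq_zero {i : ℕ} {x : G} (hx : x ∈ lcs G i) (h : cls x hx = 0) : x ∈ lcs G (i + 1) :=
  Subgroup.mem_subgroupOf.mp ((QuotientGroup.eq_one_iff _).mp (Additive.ofMul.injective h))

theorem cls_eq_zero {i : ℕ} {x : G} (hx : x ∈ lcs G i) (h : x ∈ lcs G (i + 1)) : cls x hx = 0 :=
  congrArg Additive.ofMul ((QuotientGroup.eq_one_iff _).mpr (Subgroup.mem_subgroupOf.mpr h))

theorem cls_mul {i : ℕ} {x y : G} (hx : x ∈ lcs G i) (hy : y ∈ lcs G i) :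
    cls (x * y) (mul_mem hx hy) = cls x hx + cls y hy := rfl

theorem cls_inv {i : ℕ} {x : G} (hx : x ∈ lcs G i) : cls x⁻¹ (inv_mem hx) = - cls x hx := rfl

theorem cls_congr {i : ℕ} {x y : G} (h : x = y) (hx : x ∈ lcs G i) (hy : y ∈ lcs G i) : cls x hx = cls y hy := by
  subst h; rfl

theorem cls_surj {i : ℕ} (a : gr G i) : ∃ x, ∃ hx : x ∈ lcs G i, cls x hx = a := by
  obtain ⟨x, hx⟩ := QuotientGroup.mk_surjective (Additive.toMul a)
  exact ⟨x.1, x.2, congrArg Additive.ofMul hx⟩

theorem cls_conj {i : ℕ} {x : G} (hx : x ∈ lcs G i) (a : G) (h : a * x * a⁻¹ ∈ lcs G i) :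
    cls (a * x * a⁻¹) h = cls x hx := by
  refine cls_eq _ _ ?_
  have h' := comm_top_mem h a
  have h2 := comm_top_mem (Subgroup.inv_mem _ hx) a
  have h3 := Subgroup.inv_mem _ h2
  convert h3 using 1
  simp [commutatorElement_def, mul_assoc]

/-- The commutator map on factors, multiplicatively. -/
noncomputable def comHom (i j n : ℕ) (h : i + j + 1 = n) : Fac G i →* Fac G j →* Fac G n :=
  let inner (x : ↥(lcs G i)) : Fac G j →* Fac G n :=
    QuotientGroup.lift _
      (MonoidHom.mk' (fun y : ↥(lcs G j) => (QuotientGroup.mk ⟨⁅(x : G), (y : G)⁆, comm_mem h x.2 y.2⟩ : Fac G n))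
        fun y z => by
          rw [← QuotientGroup.mk_mul, QuotientGroup.eq, Subgroup.mem_subgroupOf]
          have h1 := comm_top_mem (comm_mem h x.2 z.2) (y : G)
          have h2 := (inferInstance : (lcs G (n + 1)).Normal).conj_mem _ h1 ((⁅(x : G), (z : G)⁆)⁻¹)
          convert h2 using 1
          simp [commutatorElement_def, mul_assoc])
      fun y hy => (QuotientGroup.eq_one_iff _).mpr (Subgroup.mem_subgroupOf.mpr
        (comm_mem (show i + (j + 1) + 1 = n + 1 by omega) x.2 (Subgroup.mem_subgroupOf.mp hy)))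
  QuotientGroup.lift _
    (MonoidHom.mk' inner fun x z => MonoidHom.ext fun b => by
      obtain ⟨y, rfl⟩ := QuotientGroup.mk_surjective b
      show (QuotientGroup.mk ⟨⁅(x : G) * (z : G), (y : G)⁆, _⟩ : Fac G n) =
        QuotientGroup.mk ⟨⁅(x : G), (y : G)⁆, _⟩ * QuotientGroup.mk ⟨⁅(z : G), (y : G)⁆, _⟩
      rw [mul_comm, ← QuotientGroup.mk_mul, QuotientGroup.eq, Subgroup.mem_subgroupOf]
      have h1 := Subgroup.inv_mem _ (comm_top_mem (Subgroup.inv_mem _ (comm_mem h z.2 y.2)) (x : G))
      have h2 := (inferInstance : (lcs G (n + 1)).Normal).conj_mem _ h1 ((⁅(x : G), (y : G)⁆)⁻¹)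
      convert h2 using 1
      simp [commutatorElement_def, mul_assoc])
    fun x hx => MonoidHom.ext fun b => by
      obtain ⟨y, rfl⟩ := QuotientGroup.mk_surjective b
      exact (QuotientGroup.eq_one_iff _).mpr (Subgroup.mem_subgroupOf.mpr
        (comm_mem (show i + 1 + j + 1 = n + 1 by omega) (Subgroup.mem_subgroupOf.mp hx) y.2))

/-- The commutator map on factors. -/
noncomputable def com (i j n : ℕ) (h : i + j + 1 = n) : gr G i →+ gr G j →+ gr G n :=
  AddMonoidHom.mk'
    (fun a => AddMonoidHom.mk' (fun b => Additive.ofMul (comHom i j n h (Additive.toMul a) (Additive.toMul b)))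
      fun b b' => congrArg Additive.ofMul (map_mul (comHom i j n h (Additive.toMul a)) (Additive.toMul b) (Additive.toMul b')))
    fun a a' => AddMonoidHom.ext fun b =>
      congrArg Additive.ofMul (DFunLike.congr_fun (map_mul (comHom i j n h) (Additive.toMul a) (Additive.toMul a')) (Additive.toMul b))

theorem com_cls {i j n : ℕ} (h : i + j + 1 = n) {x y : G} (hx : x ∈ lcs G i) (hy : y ∈ lcs G j) :
    com i j n h (cls x hx) (cls y hy) = cls ⁅x, y⁆ (comm_mem h hx hy) := rfl

theorem com_skew {i j n : ℕ} (h : i + j + 1 = n) (h' : j + i + 1 = n) (a : gr G i) (b : gr G j) :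
    com j i n h' b a = - com i j n h a b := by
  obtain ⟨x, hx, rfl⟩ := cls_surj a
  obtain ⟨y, hy, rfl⟩ := cls_surj b
  rw [com_cls, com_cls, ← cls_inv]
  exact cls_congr (commutatorElement_inv x y).symm _ _

theorem com_self {i n : ℕ} (h : i + i + 1 = n) (a : gr G i) : com i i n h a a = 0 := by
  obtain ⟨x, hx, rfl⟩ := cls_surj a
  rw [com_cls]
  exact cls_eq_zero _ (by rw [commutatorElement_self]; exact one_mem _)

theorem com_jacobi {i j k N : ℕ} {m₁ m₂ m₃ : ℕ} (e₁ : i + j + 1 = m₁) (e₂ : j + k + 1 = m₂) (e₃ : k + i + 1 = m₃)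
    (f₁ : m₁ + k + 1 = N) (f₂ : m₂ + i + 1 = N) (f₃ : m₃ + j + 1 = N) (a : gr G i) (b : gr G j) (c : gr G k) :
    com m₁ k N f₁ (com i j m₁ e₁ a b) c + com m₂ i N f₂ (com j k m₂ e₂ b c) a
      + com m₃ j N f₃ (com k i m₃ e₃ c a) b = 0 := by
  obtain ⟨x, hx, rfl⟩ := cls_surj a
  obtain ⟨y, hy, rfl⟩ := cls_surj b
  obtain ⟨z, hz, rfl⟩ := cls_surj c
  have hz' := (inferInstance : (lcs G k).Normal).conj_mem z hz y
  have hx' := (inferInstance : (lcs G i).Normal).conj_mem x hx z
  have hy' := (inferInstance : (lcs G j).Normal).conj_mem y hy x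
  rw [← cls_conj hz y hz', ← cls_conj hx z hx', ← cls_conj hy x hy']
  conv_lhs => rw [cls_conj hx z hx', cls_conj hy x hy', cls_conj hz y hz']
  have h1 : com m₁ k N f₁ (cls ⁅x, y⁆ (comm_mem e₁ hx hy)) (cls (y * z * y⁻¹) hz')
      + com m₂ i N f₂ (cls ⁅y, z⁆ (comm_mem e₂ hy hz)) (cls (z * x * z⁻¹) hx')
      + com m₃ j N f₃ (cls ⁅z, x⁆ (comm_mem e₃ hz hx)) (cls (x * y * x⁻¹) hy') = 0 := by
    rw [com_cls, com_cls, com_cls, ← cls_mul, ← cls_mul]
    exact cls_eq_zero _ (by rw [commutatorElement_commutatorElement_conj_mul]; exact one_mem _)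
  rw [cls_conj hx z hx', cls_conj hy x hy', cls_conj hz y hz'] at h1
  exact h1

variable (G) (p : ℕ)

/-- The doubly graded ring. -/
abbrev Ring2 : Type _ := ⨁ x : ℕ × ZMod p, gr G x.1

variable {G} {p}

/-- The bracket. -/
noncomputable def brHom : Ring2 G p →+ Ring2 G p →+ Ring2 G p :=
  DirectSum.toAddMonoid fun a =>
    AddMonoidHom.mk' (fun x => DirectSum.toAddMonoid fun b =>
      (DirectSum.of (fun x : ℕ × ZMod p => gr G x.1) (a.1 + b.1 + 1, a.2 + b.2)).comp (com a.1 b.1 _ rfl x))
      fun x x' => DirectSum.addHom_ext fun b y => by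
        simp only [DirectSum.toAddMonoid_of, AddMonoidHom.add_apply, AddMonoidHom.comp_apply, map_add]

/-- An element in a given bidegree. -/
noncomputable abbrev ofDeg (n : ℕ) (s : ZMod p) : gr G n →+ Ring2 G p :=
  DirectSum.of (fun x : ℕ × ZMod p => gr G x.1) (n, s)

theorem ofDeg_com {i j n n' : ℕ} {s s' : ZMod p} (h : i + j + 1 = n) (h' : i + j + 1 = n') (hs : s = s')
    (x : gr G i) (y : gr G j) : ofDeg n s (com i j n h x y) = ofDeg n' s' (com i j n' h' x y) := by
  subst hs; subst h; subst h'; rfl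

theorem brHom_of (i j : ℕ) (a b : ZMod p) (x : gr G i) (y : gr G j) :
    brHom (ofDeg i a x) (ofDeg j b y) = ofDeg (i + j + 1) (a + b) (com i j _ rfl x y) := by
  simp [brHom]

theorem brHom_skew (f g : Ring2 G p) : brHom f g + brHom g f = 0 := by
  induction f using DirectSum.induction_on with
  | zero => simp
  | add f f' hf hf' =>
    rw [map_add, AddMonoidHom.add_apply, map_add, add_add_add_comm, hf, hf', add_zero]
  | of a x =>
    induction g using DirectSum.induction_on with
    | zero => simp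
    | add g g' hg hg' => rw [map_add, map_add brHom, AddMonoidHom.add_apply, add_add_add_comm, hg, hg', add_zero]
    | of b y =>
      rw [brHom_of, brHom_of, com_skew (i := a.1) (j := b.1) (n := b.1 + a.1 + 1) (by omega), map_neg,
        ofDeg_com (n' := b.1 + a.1 + 1) rfl (by omega) (add_comm a.2 b.2), add_neg_cancel]

theorem brHom_self (f : Ring2 G p) : brHom f f = 0 := by
  induction f using DirectSum.induction_on with
  | zero => simp
  | add f g hf hg =>
    simp only [map_add, AddMonoidHom.add_apply, hf, hg, zero_add, add_zero]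
    first | exact brHom_skew g f | exact brHom_skew f g
  | of a x => rw [brHom_of, com_self, map_zero]

theorem brHom_leibniz (f g h : Ring2 G p) :
    brHom f (brHom g h) = brHom (brHom f g) h + brHom g (brHom f h) := by
  induction f using DirectSum.induction_on with
  | zero => simp
  | add f f' hf hf' => simp only [map_add, AddMonoidHom.add_apply, hf, hf']; abel
  | of a x =>
    induction g using DirectSum.induction_on with
    | zero => simp
    | add g g' hg hg' => simp only [map_add, AddMonoidHom.add_apply, hg, hg']; abel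
    | of b y =>
      induction h using DirectSum.induction_on with
      | zero => simp
      | add h h' hh hh' => simp only [map_add, hh, hh']; abel
      | of c z =>
        obtain ⟨i, s⟩ := a
        obtain ⟨j, t⟩ := b
        obtain ⟨k, u⟩ := c
        rw [brHom_of, brHom_of, brHom_of, brHom_of, brHom_of, brHom_of]
        set N := i + (j + k + 1) + 1
        rw [ofDeg_com (n' := N) (s' := s + (t + u)) rfl (show i + (j + k + 1) + 1 = N from rfl) rfl,
          ofDeg_com (n' := N) (s' := s + (t + u)) rfl (show i + j + 1 + k + 1 = N by omega) (add_assoc s t u),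
          ofDeg_com (n' := N) (s' := s + (t + u)) rfl (show j + (i + k + 1) + 1 = N by omega) (by ring),
          ← map_add]
        refine congrArg _ ?_
        have hJ := com_jacobi (N := N) (rfl : i + j + 1 = _) (rfl : j + k + 1 = _) (show k + i + 1 = i + k + 1 by omega)
          (show i + j + 1 + k + 1 = N by omega) (show j + k + 1 + i + 1 = N by omega)
          (show i + k + 1 + j + 1 = N by omega) x y z
        have e1 : com i (j + k + 1) N rfl x (com j k (j + k + 1) rfl y z) =
            - com (j + k + 1) i N (by omega) (com j k (j + k + 1) rfl y z) x := com_skew _ _ _ _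
        have e2 : com j (i + k + 1) N (by omega) y (com i k (i + k + 1) rfl x z) =
            - com (i + k + 1) j N (by omega) (com i k (i + k + 1) rfl x z) y := com_skew _ _ _ _
        have e3 : com i k (i + k + 1) rfl x z = - com k i (i + k + 1) (by omega) z x := com_skew _ _ _ _
        rw [e1, e2, e3, map_neg, AddMonoidHom.neg_apply, neg_neg, neg_eq_iff_add_eq_zero, ← hJ]
        abel

noncomputable instance : LieRing (Ring2 G p) where
  bracket f g := brHom f g
  add_lie f g h := by show brHom (f + g) h = brHom f h + brHom g h; rw [map_add, AddMonoidHom.add_apply]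
  lie_add f g h := map_add (brHom f) g h
  lie_self := brHom_self
  leibniz_lie := brHom_leibniz

theorem lie_of (i j : ℕ) (a b : ZMod p) (x : gr G i) (y : gr G j) :
    ⁅ofDeg i a x, ofDeg j b y⁆ = ofDeg (i + j + 1) (a + b) (com i j _ rfl x y) :=
  brHom_of i j a b x y

end CfsgLib.Kreknin
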