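import Mathlib
import Cfsg.Agent.Kreknin.Assoc
import Cfsg.Agent.ZJ.Fpf

/-!
The class of a finite group with a fixed-point-free automorphism of prime order.
-/

set_option autoImplicit false

namespace CfsgLib.Kreknin

open scoped commutatorElement DirectSum

variable {G : Type*} [Group G] {p : ℕ} [Fact p.Prime]

theorem top_mem (x : G) : x ∈ lcs G 0 := Subgroup.mem_top x

theorem lcs_map_mem (α : MulAut G) {i : ℕ} {x : G} (hx : x ∈ lcs G i) : α x ∈ lcs G i := by
  have h := (Subgroup.lowerCentralSeries.map (α : G →* G) i) (Subgroup.mem_map_of_mem _ hx)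
  exact h

/-- The induced map on a factor. -/
noncomputable def act (α : MulAut G) (i : ℕ) : gr G i →+ gr G i :=
  MonoidHom.toAdditive (QuotientGroup.map _ _
    (MonoidHom.mk' (fun x : ↥(lcs G i) => (⟨α x, lcs_map_mem α x.2⟩ : ↥(lcs G i)))
      fun x y => Subtype.ext (map_mul α (x : G) y))
    fun x hx => Subgroup.mem_comap.mpr (Subgroup.mem_subgroupOf.mpr (lcs_map_mem α (Subgroup.mem_subgroupOf.mp hx))))

theorem act_cls (α : MulAut G) {i : ℕ} {x : G} (hx : x ∈ lcs G i) :
    act α i (cls x hx) = cls (α x) (lcs_map_mem α hx) := rfl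

theorem act_com (α : MulAut G) {i j n : ℕ} (h : i + j + 1 = n) (a : gr G i) (b : gr G j) :
    act α n (com i j n h a b) = com i j n h (act α i a) (act α j b) := by
  obtain ⟨x, hx, rfl⟩ := cls_surj a
  obtain ⟨y, hy, rfl⟩ := cls_surj b
  rw [com_cls, act_cls, act_cls, act_cls, com_cls]
  exact cls_congr (map_commutatorElement α x y) _ _

theorem act_fixed [Finite G] {α : MulAut G} (hf : MonoidHom.FixedPointFree (α : G → G)) {i : ℕ} (a : gr G i)
    (h : act α i a = a) : a = 0 := by
  obtain ⟨x, hx, rfl⟩ := cls_surj a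
  rw [act_cls, ← sub_eq_zero, sub_eq_add_neg, ← cls_inv, ← cls_mul] at h
  have hn : α x * x⁻¹ ∈ lcs G (i + 1) := mem_of_cls_eq_zero _ h
  set N := lcs G (i + 1)
  let f : N → N := fun u => ⟨α u * (u : G)⁻¹, N.mul_mem (lcs_map_mem α u.2) (N.inv_mem u.2)⟩
  have hinj : Function.Injective f := by
    intro u v huv
    have h1 : α u * (u : G)⁻¹ = α v * (v : G)⁻¹ := congrArg Subtype.val huv
    have h2 : α ((v : G)⁻¹ * u) = (v : G)⁻¹ * u := by
      rw [map_mul, map_inv]
      calc (α v)⁻¹ * α u = (α v)⁻¹ * (α u * (u : G)⁻¹) * u := by group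
        _ = (α v)⁻¹ * (α v * (v : G)⁻¹) * u := by rw [h1]
        _ = (v : G)⁻¹ * u := by group
    exact Subtype.ext (inv_mul_eq_one.mp (hf _ h2)).symm
  obtain ⟨u, hu⟩ := (Finite.surjective_of_injective hinj) ⟨_, hn⟩
  have h1 : α u * (u : G)⁻¹ = α x * x⁻¹ := congrArg Subtype.val hu
  have h2 : α ((u : G)⁻¹ * x) = (u : G)⁻¹ * x := by
    rw [map_mul, map_inv]
    calc (α u)⁻¹ * α x = (α u)⁻¹ * (α x * x⁻¹) * x := by group
      _ = (α u)⁻¹ * (α u * (u : G)⁻¹) * x := by rw [h1]
      _ = (u : G)⁻¹ * x := by group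
  have hxu : (u : G) = x := inv_mul_eq_one.mp (hf _ h2)
  exact cls_eq_zero _ (hxu ▸ u.2)

/-- The automorphism on the ring. -/
noncomputable def actR (α : MulAut G) : Ring2 G p →+ Ring2 G p :=
  DirectSum.toAddMonoid fun a => (DirectSum.of (fun x : ℕ × ZMod p => gr G x.1) a).comp (act α a.1)

/-- Shifting the residue. -/
noncomputable def shift (j : ZMod p) : Ring2 G p →+ Ring2 G p :=
  DirectSum.toAddMonoid fun a => ofDeg a.1 (a.2 + j)

theorem actR_of (α : MulAut G) (n : ℕ) (s : ZMod p) (x : gr G n) :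
    actR α (ofDeg n s x) = ofDeg n s (act α n x) := by simp [actR]

theorem shift_of (j : ZMod p) (n : ℕ) (s : ZMod p) (x : gr G n) :
    shift j (ofDeg n s x) = ofDeg n (s + j) x := by simp [shift]

theorem actR_apply (α : MulAut G) (f : Ring2 G p) (a : ℕ × ZMod p) : actR α f a = act α a.1 (f a) := by
  induction f using DirectSum.induction_on with
  | zero => simp
  | add f g hf hg => simp [hf, hg]
  | of b y =>
    rw [show DirectSum.of _ b y = ofDeg b.1 b.2 y from rfl, actR_of]
    rcases eq_or_ne b a with rfl | hba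
    · rw [DirectSum.of_eq_same, DirectSum.of_eq_same]
    · rw [DirectSum.of_eq_of_ne _ _ _ hba.symm, DirectSum.of_eq_of_ne _ _ _ hba.symm, map_zero]

theorem actR_lie (α : MulAut G) (f g : Ring2 G p) : actR α ⁅f, g⁆ = ⁅actR α f, actR α g⁆ := by
  induction f using DirectSum.induction_on with
  | zero => simp
  | add f f' hf hf' => simp only [add_lie, map_add, hf, hf']
  | of a x =>
    induction g using DirectSum.induction_on with
    | zero => simp
    | add g g' hg hg' => simp only [lie_add, map_add, hg, hg']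
    | of b y => rw [lie_of, actR_of, actR_of, actR_of, lie_of, act_com]

theorem shift_lie (c d : ZMod p) (f g : Ring2 G p) : shift (c + d) ⁅f, g⁆ = ⁅shift c f, shift d g⁆ := by
  induction f using DirectSum.induction_on with
  | zero => simp
  | add f f' hf hf' => simp only [add_lie, map_add, hf, hf']
  | of a x =>
    induction g using DirectSum.induction_on with
    | zero => simp
    | add g g' hg hg' => simp only [lie_add, map_add, hg, hg']
    | of b y => rw [lie_of, shift_of, shift_of, shift_of, lie_of, add_add_add_comm]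

theorem shift_zero (f : Ring2 G p) : shift 0 f = f := by
  induction f using DirectSum.induction_on with
  | zero => simp
  | add f g hf hg => simp [hf, hg]
  | of a x => rw [shift_of, add_zero]

/-- The eigen-components. -/
noncomputable def eig (α : MulAut G) (j : ZMod p) : AddSubgroup (Ring2 G p) :=
  (actR α - shift j).ker

theorem mem_eig {α : MulAut G} {j : ZMod p} {f : Ring2 G p} : f ∈ eig α j ↔ actR α f = shift j f := by
  rw [eig, AddMonoidHom.mem_ker, AddMonoidHom.sub_apply, sub_eq_zero]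

theorem graded_eig [Finite G] {α : MulAut G} (hf : MonoidHom.FixedPointFree (α : G → G)) :
    Graded (eig (p := p) α) where
  lie_mem {a b x y} hx hy := by
    rw [mem_eig] at hx hy ⊢
    rw [actR_lie, hx, hy, shift_lie]
  zero := by
    refine le_bot_iff.mp fun f hf0 => ?_
    rw [mem_eig, shift_zero] at hf0
    rw [AddSubgroup.mem_bot]
    refine DirectSum.ext fun a => ?_
    have := congrArg (fun g : Ring2 G p => g a) hf0
    simp only [actR_apply] at this
    exact act_fixed hf _ this

/-- The eigen-component of an element. -/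
noncomputable def comp (α : MulAut G) (j : ZMod p) (x : G) : Ring2 G p :=
  ∑ k : ZMod p, ofDeg 0 (-(j * k)) (cls ((α ^ k.val) x) (top_mem _))

theorem comp_mem {α : MulAut G} (hα : α ^ p = 1) (j : ZMod p) (x : G) : comp α j x ∈ eig α j := by
  rw [mem_eig, comp, map_sum, map_sum]
  simp only [actR_of, shift_of, act_cls]
  refine Fintype.sum_equiv (Equiv.addRight (1 : ZMod p)) _ _ fun k => ?_
  rw [show -(j * Equiv.addRight 1 k) + j = -(j * k) by simp only [Equiv.coe_addRight]; ring]
  refine congrArg _ (cls_congr ?_ _ _)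
  rw [← MulAut.mul_apply, ← pow_succ', pow_eq_pow_mod (k.val + 1) hα]
  congr 2
  simp [ZMod.val_add, ZMod.val_one]

/-- A constant in the residue. -/
noncomputable def const (n : ℕ) : gr G n →+ Ring2 G p := ∑ s : ZMod p, ofDeg n s

theorem const_apply (n : ℕ) (y : gr G n) : (const n y : Ring2 G p) = ∑ s : ZMod p, ofDeg n s y := by
  rw [const, AddMonoidHom.finsetSum_apply]

theorem const_coe (n : ℕ) (y : gr G n) (s : ZMod p) : (const n y : Ring2 G p) (n, s) = y := by
  rw [const_apply]
  rw [show (∑ t : ZMod p, ofDeg n t y) (n, s) = ∑ t : ZMod p, ofDeg n t y (n, s) from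
    map_sum ({ toFun := fun g : Ring2 G p => g (n, s), map_zero' := rfl, map_add' := fun _ _ => rfl } :
      Ring2 G p →+ gr G n) _ _]
  rw [Finset.sum_eq_single s]
  · exact DirectSum.of_eq_same _ _
  · intro t _ hts
    exact DirectSum.of_eq_of_ne _ _ _ fun e => hts (congrArg Prod.snd e).symm
  · intro h; exact absurd (Finset.mem_univ s) h

theorem sum_cls_eq_zero [Finite G] {α : MulAut G} (hf : MonoidHom.FixedPointFree (α : G → G)) (hα : α ^ p = 1)
    (x : G) : ∑ k : ZMod p, cls (i := 0) ((α ^ k.val) x) (top_mem _) = 0 := by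
  refine act_fixed hf _ ?_
  rw [map_sum]
  refine Fintype.sum_equiv (Equiv.addRight (1 : ZMod p)) _ _ fun k => ?_
  rw [act_cls]
  refine cls_congr ?_ _ _
  rw [← MulAut.mul_apply, ← pow_succ', pow_eq_pow_mod (k.val + 1) hα]
  congr 2
  simp [ZMod.val_add, ZMod.val_one]

theorem sum_comp [Finite G] {α : MulAut G} (hf : MonoidHom.FixedPointFree (α : G → G)) (hα : α ^ p = 1) (x : G) :
    ∑ j : ZMod p, comp α j x = p • ofDeg 0 0 (cls x (top_mem _)) - const 0 (cls x (top_mem _)) := by
  classical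
  have hk : ∀ k : ZMod p, ∑ j : ZMod p, ofDeg 0 (-(j * k)) (cls (i := 0) ((α ^ k.val) x) (top_mem _)) =
      if k = 0 then p • ofDeg 0 0 (cls (i := 0) x (top_mem _))
      else const 0 (cls (i := 0) ((α ^ k.val) x) (top_mem _)) := by
    intro k
    split_ifs with h
    · subst h
      simp only [mul_zero, neg_zero, Finset.sum_const, Finset.card_univ, ZMod.card]
      congr 2
      exact cls_congr (by simp) _ _
    · rw [const_apply]
      refine Fintype.sum_equiv ((Equiv.mulRight₀ k h).trans (Equiv.neg _)) _ _ fun j => ?_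
      simp
  simp only [comp]
  rw [Finset.sum_comm, Finset.sum_congr rfl fun k _ => hk k, ← Finset.add_sum_erase _ _ (Finset.mem_univ 0), if_pos rfl,
    Finset.sum_congr rfl fun k hk' => if_neg (Finset.ne_of_mem_erase hk'), ← map_sum, sub_eq_add_neg, ← map_neg]
  congr 2
  rw [eq_neg_iff_add_eq_zero, add_comm]
  have h0 := sum_cls_eq_zero hf hα x
  rw [← Finset.add_sum_erase _ _ (Finset.mem_univ (0 : ZMod p))] at h0
  convert h0 using 2
  exact cls_congr (by simp) _ _

theorem cls_induction (c : ℕ) (P : gr G (c + 1) → Prop) (h0 : P 0) (hadd : ∀ a b, P a → P b → P (a + b))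
    (hneg : ∀ a, P a → P (-a)) (hgen : ∀ (u : gr G c) (v : G), P (com c 0 (c + 1) rfl u (cls v (top_mem _))))
    (a : gr G (c + 1)) : P a := by
  obtain ⟨z, hz, rfl⟩ := cls_surj a
  suffices ∀ w, w ∈ lcs G (c + 1) → ∀ hw : w ∈ lcs G (c + 1), P (cls w hw) from this z hz hz
  intro w hw
  induction hw using Subgroup.closure_induction with
  | mem z hz' =>
    intro hw
    obtain ⟨u, hu, v, -, rfl⟩ := hz'
    exact hgen (cls u hu) v
  | one => intro hw; rwa [cls_eq_zero hw (one_mem _)]
  | mul y z hy hz' ihy ihz => intro hw; exact hadd _ _ (ihy hy) (ihz hz')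
  | inv y hy ihy => intro hw; exact hneg _ (ihy hy)

theorem pow_smul_mem [Finite G] {α : MulAut G} (hf : MonoidHom.FixedPointFree (α : G → G)) (hα : α ^ p = 1) :
    ∀ (c : ℕ) (a : gr G c), (p ^ (c + 1)) • ofDeg c (0 : ZMod p) a ∈
      (⨆ i, cen (eig (p := p) α) c i) ⊔ (const (p := p) (G := G) c).range := by
  have hsum : ∀ x : G, ∑ j : ZMod p, comp α j x ∈ ⨆ i, eig (p := p) α i := fun x =>
    AddSubgroup.sum_mem _ fun j _ => AddSubgroup.mem_iSup_of_mem j (comp_mem hα j x)
  intro c
  induction c with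
  | zero =>
    intro a
    obtain ⟨x, hx, rfl⟩ := cls_surj a
    show p ^ 1 • _ ∈ _
    rw [pow_one, AddSubgroup.mem_sup]
    exact ⟨_, hsum x, _, ⟨cls x hx, rfl⟩, by rw [sum_comp hf hα]; exact sub_add_cancel _ _⟩
  | succ c ih =>
    intro a
    refine cls_induction c (fun a => p ^ (c + 1 + 1) • ofDeg (c + 1) (0 : ZMod p) a ∈
      (⨆ i, cen (eig (p := p) α) (c + 1) i) ⊔ (const (p := p) (G := G) (c + 1)).range)
      (by rw [map_zero, smul_zero]; exact zero_mem _)
      (fun a b ha hb => by rw [map_add, smul_add]; exact add_mem ha hb)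
      (fun a ha => by rw [map_neg, smul_neg]; exact neg_mem ha) (fun u x => ?_) a
    obtain ⟨w, hw, _, ⟨y, rfl⟩, hwy⟩ := AddSubgroup.mem_sup.mp (ih u)
    set v := cls (i := 0) x (top_mem x)
    set E := ∑ j : ZMod p, comp α j x
    have hE : E = p • ofDeg 0 0 v - const 0 v := sum_comp hf hα x
    have hmem : ⁅w, E⁆ ∈ ⨆ i, cen (eig (p := p) α) (c + 1) i := by
      refine AddSubgroup.iSup_induction (fun i => cen (eig (p := p) α) c i)
        (C := fun z => ⁅z, E⁆ ∈ ⨆ i, cen (eig (p := p) α) (c + 1) i) hw (fun i z hz => ?_) ?_ fun z z' hz hz' => ?_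
      · rw [lie_sum]
        exact AddSubgroup.sum_mem _ fun j _ =>
          AddSubgroup.mem_iSup_of_mem (i + j) (lie_mem_brk hz (comp_mem hα j x))
      · rw [zero_lie]; exact zero_mem _
      · rw [add_lie]; exact add_mem hz hz'
    have hl : ∀ (a b : ZMod p) (u' : gr G c), ⁅ofDeg c a u', (ofDeg 0 b v : Ring2 G p)⁆ =
        ofDeg (c + 1) (a + b) (com c 0 (c + 1) rfl u' v) := fun a b u' => lie_of c 0 a b u' v
    have hoc : ∀ (a : ZMod p) (u' : gr G c), ⁅ofDeg c a u', (const 0 v : Ring2 G p)⁆ = const (c + 1) (com c 0 (c + 1) rfl u' v) := by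
      intro a u'
      rw [const_apply, const_apply, lie_sum]
      refine Fintype.sum_equiv (Equiv.addLeft a) _ _ fun s => ?_
      rw [hl]
      rfl
    have hco : ⁅(const c y : Ring2 G p), ofDeg 0 (0 : ZMod p) v⁆ = const (c + 1) (com c 0 (c + 1) rfl y v) := by
      rw [const_apply, const_apply, sum_lie]
      refine Finset.sum_congr rfl fun s _ => ?_
      rw [hl, add_zero]
    have hcc : ⁅(const c y : Ring2 G p), (const 0 v : Ring2 G p)⁆ = p • const (c + 1) (com c 0 (c + 1) rfl y v) := by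
      rw [const_apply c y, sum_lie, Finset.sum_congr rfl fun s _ => hoc s y, Finset.sum_const, Finset.card_univ, ZMod.card]
    have hw' : w = p ^ (c + 1) • ofDeg c (0 : ZMod p) u - const c y := eq_sub_of_add_eq hwy
    have hexp : ⁅w, E⁆ = p ^ (c + 1 + 1) • ofDeg (c + 1) (0 : ZMod p) (com c 0 (c + 1) rfl u v)
        - p ^ (c + 1) • const (c + 1) (com c 0 (c + 1) rfl u v) := by
      rw [hw', hE, sub_lie, lie_sub, lie_sub, nsmul_lie, nsmul_lie, lie_nsmul, lie_nsmul, hl, hoc, hco, hcc,
        add_zero, smul_smul, ← pow_succ]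
      abel
    rw [AddSubgroup.mem_sup]
    exact ⟨_, hmem, _, ⟨p ^ (c + 1) • com c 0 (c + 1) rfl u v, rfl⟩, by rw [hexp, map_nsmul]; exact sub_add_cancel _ _⟩

theorem eq_bot_of_cen [Finite G] (hG : Group.IsNilpotent G) {α : MulAut G}
    (hf : MonoidHom.FixedPointFree (α : G → G)) (hα : α ^ p = 1) (hcop : ¬ p ∣ Nat.card G) (c : ℕ)
    (hc : ∀ i, cen (eig (p := p) α) c i = ⊥) : lcs G c = ⊥ := by
  have hzero : ∀ a : gr G c, a = 0 := by
    intro a
    have h := pow_smul_mem hf hα c a
    rw [show (⨆ i, cen (eig (p := p) α) c i) = ⊥ by simp [hc], bot_sup_eq] at h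
    obtain ⟨y, hy⟩ := h
    have happ : ∀ (n : ℕ) (f : Ring2 G p) (s : ℕ × ZMod p), (n • f) s = n • f s := fun n f s =>
      map_nsmul ({ toFun := fun g : Ring2 G p => g s, map_zero' := rfl, map_add' := fun _ _ => rfl } :
        Ring2 G p →+ gr G s.1) n f
    have h1 := congrArg (fun g : Ring2 G p => g (c, (1 : ZMod p))) hy
    have h0 := congrArg (fun g : Ring2 G p => g (c, (0 : ZMod p))) hy
    simp only [const_coe, happ] at h1 h0
    rw [DirectSum.of_eq_of_ne _ _ _ (by intro e; exact one_ne_zero (congrArg Prod.snd e)), smul_zero] at h1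
    rw [DirectSum.of_eq_same, h1, eq_comm, ← addOrderOf_dvd_iff_nsmul_eq_zero] at h0
    have hdiv : addOrderOf a ∣ Nat.card G :=
      (addOrderOf_dvd_natCard a).trans ((Subgroup.card_quotient_dvd_card _).trans (Subgroup.card_subgroup_dvd_card _))
    exact AddMonoid.addOrderOf_eq_one_iff.mp (Nat.eq_one_of_dvd_coprimes
      (Nat.Coprime.pow_left _ ((Fact.out : p.Prime).coprime_iff_not_dvd.mpr hcop)) h0 hdiv)
  have hle : lcs G c ≤ lcs G (c + 1) := fun x hx => mem_of_cls_eq_zero hx (hzero _)
  obtain ⟨n, hn⟩ := Subgroup.nilpotent_iff_lowerCentralSeries.mp hG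
  refine le_bot_iff.mp ?_
  have : ∀ k, lcs G c ≤ lcs G (c + k) := by
    intro k
    induction k with
    | zero => exact le_rfl
    | succ k ih => exact hle.trans (Subgroup.commutator_mono ih le_rfl)
  exact (this n).trans (le_of_le_of_eq (lcs_le_of_le (Nat.le_add_left n c)) hn)

/-- The class bounds. -/
theorem class_bound [Finite G] {α : MulAut G} (hf : MonoidHom.FixedPointFree (α : G → G)) (hα : α ^ p = 1)
    (hne : α ≠ 1) :
    (p = 3 → lcs G 2 = ⊥) ∧ lcs G (∑ r ∈ Finset.range (2 ^ (p - 1) - 1), (p - 1) ^ r) = ⊥ := by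
  have hG : Group.IsNilpotent G := ZJ.isNilpotent_of_fixedPointFree Fact.out hf hα
  have hcop : ¬ p ∣ Nat.card G := by
    intro hd
    letI : MulAction (Subgroup.zpowers α) G := MulAction.compHom G (Subgroup.zpowers α).subtype
    have hp : IsPGroup p (Subgroup.zpowers α) := IsPGroup.of_card (n := 1) (by
      rw [Nat.card_zpowers, orderOf_eq_prime hα hne, pow_one])
    have h1 := hp.card_modEq_card_fixedPoints G
    have h2 : MulAction.fixedPoints (Subgroup.zpowers α) G = {(1 : G)} := by
      ext x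
      constructor
      · intro hx; exact hf x (hx ⟨α, Subgroup.mem_zpowers α⟩)
      · intro hx a
        rw [Set.mem_singleton_iff.mp hx]
        exact map_one (a : MulAut G)
    rw [h2, Nat.card_coe_set_eq, Set.ncard_singleton] at h1
    have h3 : 0 ≡ 1 [MOD p] := ((Nat.modEq_zero_iff_dvd.mpr hd).symm).trans h1
    exact (Fact.out : p.Prime).not_dvd_one (Nat.modEq_zero_iff_dvd.mp h3.symm)
  exact ⟨fun h3 => eq_bot_of_cen hG hf hα hcop 2 (cen_two_of_three h3 (graded_eig hf)),
    eq_bot_of_cen hG hf hα hcop _ (cen_bound (graded_eig hf))⟩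

end CfsgLib.Kreknin
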